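import Cfsg.Agent.H3.Essential
import Cfsg.Agent.BS.BY
import Cfsg.Agent.H11.AbS
import Cfsg.Prelude.Def_QuasithinSetup

/-! Consequences of Goldschmidt's theorem, I: the Alperin-Goldschmidt family. -/

set_option autoImplicit false

namespace Cfsg.Agent.H11

open Subgroup Cfsg.Agent.H3

variable {G : Type*} [Group G] [Finite G]

/-- The conclusion of Goldschmidt's theorem for `S`. -/
def Gd (S : Sylow 2 G) : Prop := ∀ A : Subgroup G, A ≠ ⊥ → IsMulCommutative A →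
  IsStronglyClosed A (S : Subgroup G) →
    IsMulCommutative (S : Subgroup G) ∨ ∃ H : Subgroup G, IsStronglyEmbedded H

theorem ag_control (T : Sylow 2 G) {M : Subgroup G}
    (h : ∀ D ∈ agConjFamily (T : Subgroup G), normalizer (D : Set G) ≤ M) {a g : G}
    (ha : a ∈ (T : Subgroup G)) (hg : g * a * g⁻¹ ∈ (T : Subgroup G)) :
    ∃ m ∈ M, g * a * g⁻¹ = m * a * m⁻¹ := by
  by_cases h1 : a = 1
  · exact ⟨1, one_mem _, by simp [h1]⟩
  obtain ⟨c, hc, y, hy, e⟩ := exists_chain_of_essLike T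
    (F := fun D x => (D ≤ T ∧ FullyNormalized 2 T D ∧ Radical 2 T D) ∧ x ∈ normalizer (D : Set G))
    (fun D x h => ⟨h.2, h.1, inv_mem h.2⟩)
    (fun n hn => ⟨⟨le_rfl, fullyNormalized_self T, radical_self _⟩, hn⟩)
    (fun B H hB hfn hE hC hF => by
      by_contra hne
      exact hne fun x hx => hF x ⟨⟨hB.le, hfn, hE.radical hB hfn hC hne⟩, hx⟩)
    (A := {a}) (g := g⁻¹) (Set.singleton_subset_iff.2 ha)
    (by rintro _ ⟨_, rfl, rfl⟩; simp only [inv_inv]; exact hg)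
  have key : ∀ {A : Set G} {y : G}, Chain (fun D x => (D ≤ T ∧ FullyNormalized 2 T D ∧
      Radical 2 T D) ∧ x ∈ normalizer (D : Set G)) A y → (∃ b ∈ A, b ≠ 1) → y ∈ M := by
    intro A y hy
    induction hy with
    | nil => exact fun _ => one_mem _
    | @cons A D x g h1 h2 _ ih =>
      rintro ⟨b, hb, b1⟩
      have h5 := h1.1.2.2.map_pPrimePCore h1.1.1 h1.1.2.1
      refine mul_mem (h D ⟨fun e => b1 (mem_bot.1 (e ▸ h2 hb)), h1.1.1, ⟨h1.1.2.1.toSylow, rfl⟩,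
        h5.2 ▸ le_sup_right, ?_, h5.1⟩ h1.2) (ih ⟨_, ⟨b, hb, rfl⟩, fun e => b1 ?_⟩)
      · exact commutator_eq_bot_iff_le_centralizer.2
          (map_pPrimeCore_normalizer_le (T.2.to_le h1.1.1))
      · simpa [mul_assoc] using congrArg (fun z => x * z * x⁻¹) e
  refine ⟨y⁻¹, inv_mem (key hy ⟨a, rfl, h1⟩), ?_⟩
  rw [← inv_inv g, e, inv_inv, mul_assoc, ← mul_assoc a, hc a rfl]
  group

theorem s1847 [IsSimpleGroup G] (hG : ¬ IsMulCommutative G) (T : Sylow 2 G) (hg : Gd T)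
    (M : Subgroup G) (hM : maxTwoLocalsContaining (T : Subgroup G) = {M})
    (h : ∀ D ∈ agConjFamily (T : Subgroup G), normalizer (D : Set G) ≤ M) :
    (∀ U : Subgroup G, U ≤ M → M ≤ normalizer (U : Set G) → IsPGroup 2 ↥U →
        IsStronglyClosed U (T : Subgroup G)) ∧ IsBenderGroup G := by
  obtain ⟨⟨⟨Q, hQ, hQ1, hMQ⟩, -⟩, hT⟩ : M ∈ maxTwoLocalsContaining (T : Subgroup G) := hM ▸ rfl
  have h1 : ∀ U : Subgroup G, M ≤ normalizer (U : Set G) → IsPGroup 2 ↥U →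
      IsStronglyClosed U (T : Subgroup G) := fun U h2 h3 => by
    have h4 := (isSylIn_top T).le_of_normalized h3 le_top (hT.trans h2)
    refine ⟨h4, fun x hx g hg => ?_⟩
    obtain ⟨m, hm, e⟩ := ag_control T h (h4 hx) hg
    exact e ▸ conj_mem_of_mem_normalizer (h2 hm) hx
  refine ⟨fun U _ => h1 U, ?_⟩
  obtain ⟨z, z1, z2, z3⟩ := exists_orderOf_eq_centralizer_of_normalized hQ hQ hQ1 le_normalizer
  have h2 := h1 (Q ⊓ centralizer (Q : Set G)) (hMQ ▸ (le_inf le_rfl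
    (H10.normalizer_le_normalizer_centralizer _)).trans inf_normalizer_le_normalizer_inf)
    (hQ.to_le inf_le_left)
  have h3 : Q ⊓ centralizer (Q : Set G) ≠ ⊥ := fun e =>
    ne_one_of_orderOf_two z2 (mem_bot.1 (e ▸ ⟨z1, z3⟩))
  obtain ⟨H, hH⟩ : ∃ H : Subgroup G, IsStronglyEmbedded H := by
    refine (hg _ h3 ⟨⟨fun a b => Subtype.ext (b.2.2 a a.2.1)⟩⟩ h2).elim (fun h4 => ⟨M, ?_⟩) id
    refine isStronglyEmbedded_of_normalizers_le (fun e => ?_) ((isSylIn_top T).of_le hT le_top)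
      (fun e => h3 (le_bot_iff.1 (e ▸ h2.1))) fun X hX X1 => ?_
    · rcases (normalizer_eq_top_iff.1 (hMQ ▸ e)).eq_bot_or_eq_top with e | e
      · exact hQ1 e
      · exact hG ⟨⟨fun a b => congrArg Subtype.val (h4.1.1 ⟨a, (h1 Q hMQ.le hQ).1 (e ▸ trivial)⟩
          ⟨b, (h1 Q hMQ.le hQ).1 (e ▸ trivial)⟩)⟩⟩
    · obtain ⟨N, h5, h6⟩ := Finite.exists_le_maximal (p := IsTwoLocal)
        (a := normalizer (X : Set G)) ⟨X, T.2.to_le hX, X1, rfl⟩
      have : N ∈ maxTwoLocalsContaining (T : Subgroup G) :=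
        ⟨⟨h6.1, fun L hL e => le_antisymm (h6.2 hL e) e⟩, le_trans (fun t ht =>
          centralizer_le_normalizer _ fun x hx =>
            congrArg Subtype.val (h4.1.1 ⟨x, hX hx⟩ ⟨t, ht⟩)) h5⟩
      rw [hM] at this
      exact this ▸ h5
  exact BS.isBenderGroup_of (BS.Bd.isBender_of_se hH)

end Cfsg.Agent.H11
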