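import Cfsg.Agent.H11.SRank

/-!
# A `2`-group with an elementary subgroup of order sixteen containing a four-group all of whose
involutions have it as centralizer
-/

set_option autoImplicit false

namespace Cfsg.Agent.H11

open Subgroup

variable {G : Type*} [Group G] [Finite G]

omit [Finite G] in
theorem relIndex_eq_two_of' {T S : Subgroup G} {g : G} (hg : g ∈ S) (hgT : g ∉ T)
    (h : ∀ a ∈ S, a ∉ T → a * g ∈ T) : T.relIndex S = 2 := by
  refine (Subgroup.index_eq_two_iff (H := T.subgroupOf S)).2 ⟨⟨g, hg⟩, fun b => ?_⟩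
  by_cases hb : (b : G) ∈ T
  · exact Or.inr ⟨hb, fun h1 => hgT ((T.mul_mem_cancel_left hb).1 h1)⟩
  · exact Or.inl ⟨h b b.2 hb, hb⟩

theorem SR_of_sixteen {S T B : Subgroup G} (hS : IsPGroup 2 S) (hTS : T ≤ S)
    (hT2 : ∀ t ∈ T, t * t = 1) (hT16 : Nat.card T = 16) (hBT : B ≤ T) (hB4 : Nat.card B = 4)
    (hcb : ∀ b ∈ B, b ≠ 1 → ∀ s ∈ S, s * b = b * s → s ∈ T) : SR 4 S := by
  have hTc : ∀ {a b : G}, a ∈ T → b ∈ T → a * b = b * a := fun ha hb => comm_of_sq_eq_one hT2 ha hb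
  have hdis : ∀ r ∈ S, r ∉ T → (T ⊓ centralizer {r}) ⊓ B = ⊥ := by
    intro r hr hrT
    rw [eq_bot_iff]
    intro b hb
    by_contra hb1
    exact hrT (hcb b hb.2 hb1 r hr (mem_cent1.1 hb.1.2).symm)
  have hc4 : ∀ r ∈ S, r ∉ T → r ∈ normalizer (T : Set G) → r * r ∈ T →
      Nat.card ↥(T ⊓ centralizer {r}) = 4 := by
    intro r hr hrT hn h2
    obtain ⟨K, hK, -, hKc⟩ := exists_comm_sub hT2 hn fun e he => hTc h2 he
    have h1 := card_mul_le_of_disjoint inf_le_left hBT (hdis r hr hrT)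
    have h3 := Subgroup.card_le_of_le hK
    rw [hT16] at hKc h1
    rw [hB4] at h1
    nlinarith
  set S1 := S ⊓ normalizer (T : Set G) with hS1
  have hS1p : IsPGroup 2 S1 := hS.to_le inf_le_left
  have hTS1 : T ≤ S1 := le_inf hTS Subgroup.le_normalizer
  by_cases h0 : S1 ≤ T
  · refine SR.of_card (le_of_eq ?_)
    have : S = T := by
      by_contra hne
      obtain ⟨x, hx, hxT, hxn⟩ := exists_mem_normalizer_of_lt hS (lt_of_le_of_ne hTS (Ne.symm hne))
      exact hxT (h0 ⟨hx, hxn⟩)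
    rw [this, hT16]; rfl
  obtain ⟨s, hs, hsT, hs2, hs3⟩ := exists_central_mod_in (N := T) hS1p le_rfl inf_le_right
    Subgroup.le_normalizer h0
  rw [pow_two] at hs2
  set W := T ⊓ centralizer {s} with hW
  have hW4 : Nat.card W = 4 := hc4 s hs.1 hsT hs.2 hs2
  have hWK : IsKleinFour W := isKleinFour_iff.2 ⟨hW4, fun x hx => hT2 x hx.1⟩
  have hact : ∀ g ∈ S1, ∀ t ∈ T, (g * s * g⁻¹) * t * (g * s * g⁻¹)⁻¹ = s * t * s⁻¹ := by
    intro g hg t ht
    have h1 := hTc (hs3 g hg) (conj_mem_of_mem_normalizer hs.2 ht)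
    calc (g * s * g⁻¹) * t * (g * s * g⁻¹)⁻¹ =
        (g * s * g⁻¹ * s⁻¹) * (s * t * s⁻¹) * (g * s * g⁻¹ * s⁻¹)⁻¹ := by group
      _ = s * t * s⁻¹ := by rw [h1]; group
  have hWn : S1 ≤ normalizer (W : Set G) := by
    intro g hg
    refine mem_normalizer_of_forall fun w hw => ⟨conj_mem_of_mem_normalizer hg.2 hw.1, mem_cent1.2 ?_⟩
    have h1 := hact g⁻¹ (S1.inv_mem hg) w hw.1
    rw [← mem_cent1.1 hw.2] at h1
    calc g * w * g⁻¹ * s = g * (w * s * s⁻¹) * g⁻¹ * s := by group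
      _ = s * (g * w * g⁻¹) := by rw [← h1]; group
  have hWB : W ⊔ B = T := by
    refine H10.eq_of_le_of_card_le (sup_le inf_le_left hBT) ?_
    have := H10.card_sup_mul_card_inf (N := B) (H := W)
      (fun w hw => mem_normalizer_of_forall fun b hb => by rw [hTc hw.1 (hBT hb)]; simpa using hb)
    rw [hdis s hs.1 hsT, hW4, hB4] at this
    simp at this
    omega
  obtain ⟨b, hbB, hb1, hb⟩ : ∃ b ∈ B, b ≠ 1 ∧ ∀ g ∈ S1, g * b * g⁻¹ * b⁻¹ ∈ W := by
    obtain ⟨x, hx, hxW, -, hx3⟩ := exists_central_mod_in (N := W) (M := T) hS1p hTS1 hWn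
      inf_le_right (fun h => by
        have := Subgroup.card_le_of_le h
        omega)
    rw [← hWB] at hx
    obtain ⟨w, hw, b, hb, rfl⟩ := (H10.mem_sup_iff_of_right_le_normalizer
      (hBT.trans (hTS1.trans hWn))).1 hx
    refine ⟨b, hb, fun h => hxW (by rw [h, mul_one]; exact hw), fun g hg => ?_⟩
    have e : g * b * g⁻¹ * b⁻¹ = (g * w⁻¹ * g⁻¹) * (g * (w * b) * g⁻¹ * (w * b)⁻¹) * w := by group
    rw [e]
    exact W.mul_mem (W.mul_mem (conj_mem_of_mem_normalizer (hWn hg) (W.inv_mem hw)) (hx3 g hg)) hw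
  have hidx : T.relIndex S1 ≤ 4 := by
    have h1 := H3.relIndex_centralizer_le (H := S1) (N := W) (x := b) hb
    rw [hW4, ← Subgroup.inf_relIndex_right] at h1
    exact (Subgroup.relIndex_le_of_le_left (H := centralizer {b} ⊓ S1)
      (fun g hg => hcb b hbB hb1 g hg.2.1 (mem_cent1.1 hg.1))
      Subgroup.index_ne_zero_of_finite).trans h1
  have hWr : ∀ r ∈ S1, r ∉ T → r * r ∈ T → T ⊓ centralizer {r} = W := by
    intro r hr hrT hr2
    refine (H10.eq_of_le_of_card_le (le_inf inf_le_left fun w hw => mem_cent1.2 ?_)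
      (by rw [hc4 r hr.1 hrT hr.2 hr2, hW4])).symm
    by_cases hrs : r * s⁻¹ ∈ T
    · calc w * r = w * (r * s⁻¹) * s := by group
        _ = (r * s⁻¹) * (w * s) := by rw [hTc hw.1 hrs]; group
        _ = r * w := by rw [mem_cent1.1 hw.2]; group
    obtain ⟨w1, hw1⟩ : ∃ w1, w1 = s * b * s⁻¹ * b⁻¹ := ⟨_, rfl⟩
    obtain ⟨w2, hw2⟩ : ∃ w2, w2 = r * b * r⁻¹ * b⁻¹ := ⟨_, rfl⟩
    have m1 : w1 ∈ W := hw1 ▸ hb s hs
    have m2 : w2 ∈ W := hw2 ▸ hb r hr
    have e1 : s * b * s⁻¹ = w1 * b := by rw [hw1]; group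
    have e2 : r * b * r⁻¹ = w2 * b := by rw [hw2]; group
    have n1 : w1 ≠ 1 := fun h => hsT (hcb b hbB hb1 s hs.1 (by
      rw [h, one_mul, mul_inv_eq_iff_eq_mul] at e1; exact e1))
    have n2 : w2 ≠ 1 := fun h => hrT (hcb b hbB hb1 r hr.1 (by
      rw [h, one_mul, mul_inv_eq_iff_eq_mul] at e2; exact e2))
    have n3 : w1 ≠ w2 := fun h => hrs (by
      have h1 := hcb b hbB hb1 (s⁻¹ * r) (S.mul_mem (S.inv_mem hs.1) hr.1) (by
        rw [h, ← e2] at e1
        calc s⁻¹ * r * b = s⁻¹ * (r * b * r⁻¹) * r := by group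
          _ = b * (s⁻¹ * r) := by rw [← e1]; group)
      have := conj_mem_of_mem_normalizer hs.2 h1
      simpa [mul_assoc] using this)
    have c2 : r * w2 * r⁻¹ = w2 := by
      have h1 : r * (r * b * r⁻¹) * r⁻¹ = b := by
        calc r * (r * b * r⁻¹) * r⁻¹ = (r * r) * b * (r * r)⁻¹ := by group
          _ = b := by rw [hTc hr2 (hBT hbB)]; group
      rw [e2, ← conj_mul, e2, ← mul_assoc] at h1
      have h2 : r * w2 * r⁻¹ * w2 = 1 := by simpa using h1
      exact (eq_inv_of_mul_eq_one_left h2).trans (eq_inv_of_mul_eq_one_left (hT2 _ m2.1)).symm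
    have c1 : r * w1 * r⁻¹ = w1 := by
      have h1 := hact r hr (r * b * r⁻¹) (conj_mem_of_mem_normalizer hr.2 (hBT hbB))
      have h2 : r * s * r⁻¹ * (r * b * r⁻¹) * (r * s * r⁻¹)⁻¹ = r * (s * b * s⁻¹) * r⁻¹ := by group
      rw [h2, e1, ← conj_mul, e2, ← conj_mul, e1, ← mem_cent1.1 m2.2, mul_inv_cancel_right,
        ← mul_assoc, ← mul_assoc, ← hTc m1.1 m2.1] at h1
      simpa using h1
    rw [mul_inv_eq_iff_eq_mul] at c1 c2
    rcases (klein_mem_iff hWK m1 m2 n1 n2 n3).1 hw with h | h | h | h <;> rw [h]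
    · simp
    · exact c1.symm
    · exact c2.symm
    · rw [mul_assoc, ← c2, ← mul_assoc, ← c1, mul_assoc]
  have hSR1 : SR 4 S1 := by
    intro X hX N hNX hsq
    by_cases hXT : X ≤ T
    · exact (relIndex_le_card N X).trans ((Subgroup.card_le_of_le hXT).trans (by rw [hT16]; rfl))
    obtain ⟨r, hr, hrT, hr2⟩ := exists_sq_mem_of_not_le (hS1p.to_le hX) hXT
    obtain ⟨K, hK, hK', hKc⟩ := exists_comm_sub (E := X ⊓ T) (t := r) (fun e he => hT2 e he.2)
      (H10.le_normalizer_inf Subgroup.le_normalizer (hX.trans inf_le_right) hr)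
      fun e he => hTc hr2 he.2
    have h1 : K ≤ N := by
      intro k hk
      obtain ⟨e, he, rfl⟩ := hK' k hk
      have := comm_mem_of_sq hsq he.1 hr
      rw [inv_eq_of_mul_eq_one_right (hT2 e he.2)] at this
      simpa [mul_assoc] using this
    have h2 : Nat.card ↥(X ⊓ T ⊓ centralizer {r}) ≤ 4 := by
      rw [← hW4, ← hWr r (hX hr) hrT hr2]
      exact Subgroup.card_le_of_le (inf_le_inf_right _ inf_le_right)
    have h3 := card_inf_mul_relIndex T X
    rw [inf_comm] at h3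
    have h4 : T.relIndex X ≤ 4 :=
      (Subgroup.relIndex_le_of_le_right hX Subgroup.index_ne_zero_of_finite).trans hidx
    have h5 := card_mul_relIndex hNX
    have h6 := Subgroup.card_le_of_le h1
    have h7 : 0 < Nat.card N := Nat.card_pos
    have h8 : Nat.card X ≤ Nat.card N * 16 := by
      rw [← h3, ← hKc, show 16 = 4 * 4 from rfl, ← mul_assoc]
      exact Nat.mul_le_mul (Nat.mul_le_mul h6 h2) h4
    rw [← h5] at h8
    exact Nat.le_of_mul_le_mul_left h8 h7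
  by_cases h1 : S ≤ S1
  · exact hSR1.mono h1
  obtain ⟨g, hg, hgS1, hgn⟩ := exists_mem_normalizer_of_lt hS
    (lt_of_le_of_ne (inf_le_left : S1 ≤ S) fun h => h1 h.ge)
  set T' := cj g T with hT'
  have hT'S1 : T' ≤ S1 := (cj_mono g hTS1).trans (cj_eq_iff.2 hgn).le
  have hne : T' ≠ T := fun h => hgS1 ⟨hg, cj_eq_iff.1 h⟩
  have hT'16 : Nat.card T' = 16 := (card_cj g T).trans hT16
  have hT'2 : ∀ t ∈ T', t * t = 1 := by
    intro t ht
    have := hT2 _ (mem_cj.1 ht)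
    calc t * t = g * (g⁻¹ * t * g * (g⁻¹ * t * g)) * g⁻¹ := by group
      _ = 1 := by rw [this]; group
  have hWr' : ∀ r ∈ T', r ∉ T → T ⊓ centralizer {r} = W := fun r hr hrT =>
    hWr r (hT'S1 hr) hrT (by rw [hT'2 r hr]; exact T.one_mem)
  obtain ⟨r0, hr0, hr0T⟩ : ∃ r ∈ T', r ∉ T := by
    by_contra hc
    push Not at hc
    exact hne (H10.eq_of_le_of_card_le hc (by rw [hT16, hT'16]))
  have hTT' : T ⊓ T' = W := by
    refine H10.eq_of_le_of_card_le (fun t ht => ?_) ?_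
    · rw [← hWr' r0 hr0 hr0T]
      exact ⟨ht.1, mem_cent1.2 (comm_of_sq_eq_one hT'2 ht.2 hr0)⟩
    · have h3 := card_inf_mul_relIndex T T'
      have h4 : T.relIndex T' ≤ 4 :=
        (Subgroup.relIndex_le_of_le_right hT'S1 Subgroup.index_ne_zero_of_finite).trans hidx
      rw [hT'16] at h3
      rw [hW4]
      nlinarith
  have hWT' : W ≤ T' := hTT' ▸ inf_le_right
  have hS64 : Nat.card S1 ≤ 64 := by
    have := card_mul_relIndex hTS1
    rw [hT16] at this
    omega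
  have hsup : T' ⊔ T = S1 := by
    refine H10.eq_of_le_of_card_le (sup_le hT'S1 hTS1) ?_
    have := H10.card_sup_mul_card_inf (N := T) (H := T') (hT'S1.trans inf_le_right)
    rw [inf_comm, hTT', hW4, hT16, hT'16] at this
    omega
  have hcomm : ∀ t ∈ T, ∀ t' ∈ T', t * t' = t' * t → t ∈ W ∨ t' ∈ W := by
    intro t ht t' ht' h
    by_cases h2 : t' ∈ T
    · exact Or.inr (hTT' ▸ ⟨h2, ht'⟩)
    · exact Or.inl (hWr' t' ht' h2 ▸ ⟨ht, mem_cent1.2 h⟩)
  have hinv : ∀ x ∈ S1, x * x = 1 → x ∈ T ∨ x ∈ T' := by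
    intro x hx hxx
    rw [← hsup] at hx
    obtain ⟨t', ht', t, ht, rfl⟩ :=
      (H10.mem_sup_iff_of_left_le_normalizer (hT'S1.trans inf_le_right)).1 hx
    have h2 : t * t' = t' * t := by
      rw [← inv_eq_of_mul_eq_one_right hxx, mul_inv_rev, inv_eq_of_mul_eq_one_right (hT2 t ht),
        inv_eq_of_mul_eq_one_right (hT'2 t' ht')]
    rcases hcomm t ht t' ht' h2 with h | h
    · exact Or.inr (T'.mul_mem ht' (hWT' h))
    · exact Or.inl (T.mul_mem h.1 ht)
  have hsub : ∀ E ≤ S1, (∀ e ∈ E, e * e = 1) → E ≤ T ∨ E ≤ T' := by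
    intro E hE hE2
    by_contra hc
    push Not at hc
    obtain ⟨e1, he1, he1T⟩ := SetLike.not_le_iff_exists.1 hc.1
    obtain ⟨e2, he2, he2T⟩ := SetLike.not_le_iff_exists.1 hc.2
    rcases hcomm e2 ((hinv e2 (hE he2) (hE2 e2 he2)).resolve_right he2T) e1
      ((hinv e1 (hE he1) (hE2 e1 he1)).resolve_left he1T) (comm_of_sq_eq_one hE2 he2 he1) with h | h
    · exact he2T (hWT' h)
    · exact he1T h.1
  have hcj2 : ∀ (h : G) (E : Subgroup G), (∀ e ∈ E, e * e = 1) → ∀ e ∈ cj h E, e * e = 1 := by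
    intro h E hE t ht
    have := hE _ (mem_cj.1 ht)
    calc t * t = h * (h⁻¹ * t * h * (h⁻¹ * t * h)) * h⁻¹ := by group
      _ = 1 := by rw [this]; group
  have h16 : ∀ E ≤ S1, (∀ e ∈ E, e * e = 1) → Nat.card E = 16 → E = T ∨ E = T' := by
    intro E hE hE2 hc
    rcases hsub E hE hE2 with h | h
    · exact Or.inl (H10.eq_of_le_of_card_le h (by rw [hc, hT16]))
    · exact Or.inr (H10.eq_of_le_of_card_le h (by rw [hc, hT'16]))
  set S2 := S ⊓ normalizer (S1 : Set G) with hS2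
  have hswap : ∀ h ∈ S2, h ∉ S1 → cj h T = T' ∧ cj h T' = T := by
    intro h hh hh1
    have a1 : cj h T = T' := (h16 _ ((cj_mono h hTS1).trans (cj_eq_iff.2 hh.2).le) (hcj2 h T hT2)
      ((card_cj h T).trans hT16)).resolve_left fun e => hh1 ⟨hh.1, cj_eq_iff.1 e⟩
    exact ⟨a1, (h16 _ ((cj_mono h hT'S1).trans (cj_eq_iff.2 hh.2).le) (hcj2 h T' hT'2)
      ((card_cj h T').trans hT'16)).resolve_right fun e => hne (cj_injective h (e.trans a1.symm))⟩
  have hS12 : S1 ≤ S2 := le_inf inf_le_left Subgroup.le_normalizer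
  have hi2 : S1.relIndex S2 = 2 := relIndex_eq_two_of' ⟨hg, hgn⟩ hgS1 fun a ha ha1 =>
    ⟨S.mul_mem ha.1 hg, cj_eq_iff.1 (by rw [cj_mul]; exact (hswap a ha ha1).2)⟩
  have hfixW : ∀ e ∈ S2, e ∉ S1 → ∀ x, x ∈ T ∨ x ∈ T' → e * x * e⁻¹ = x → x ∈ W := by
    intro e he he1 x hx hex
    rw [← hTT']
    rcases hx with hx | hx
    · exact ⟨hx, hex ▸ (hswap e he he1).1 ▸ conj_mem_map_conj e hx⟩
    · exact ⟨hex ▸ (hswap e he he1).2 ▸ conj_mem_map_conj e hx, hx⟩
  have hSS2 : S ≤ S2 := by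
    by_contra hc
    obtain ⟨h, hh, hh2, hhn⟩ := exists_mem_normalizer_of_lt hS
      (lt_of_le_of_ne (inf_le_left : S2 ≤ S) fun h => hc h.ge)
    have hE : cj h T ≤ S2 := (cj_mono h (hTS1.trans hS12)).trans (cj_eq_iff.2 hhn).le
    by_cases hE1 : cj h T ≤ S1
    · rcases h16 _ hE1 (hcj2 h T hT2) ((card_cj h T).trans hT16) with e | e
      · exact hh2 (hS12 ⟨hh, cj_eq_iff.1 e⟩)
      · have : g⁻¹ * h ∈ S1 := ⟨S.mul_mem (S.inv_mem hg) hh, cj_eq_iff.1 (by
          rw [cj_mul, e, hT', cj_inv_cj])⟩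
        have h5 := S2.mul_mem (⟨hg, hgn⟩ : g ∈ S2) (hS12 this)
        rw [mul_inv_cancel_left] at h5
        exact hh2 h5
    · obtain ⟨e, he, he1⟩ := SetLike.not_le_iff_exists.1 hE1
      have a1 : S1 ⊓ cj h T ≤ W := fun x hx => hfixW e (hE he) he1 x
        (hinv x hx.1 (hcj2 h T hT2 x hx.2)) (by
          rw [comm_of_sq_eq_one (hcj2 h T hT2) he hx.2]; group)
      have a2 := card_inf_mul_relIndex S1 (cj h T)
      have a3 : S1.relIndex (cj h T) ≤ 2 :=
        (Subgroup.relIndex_le_of_le_right hE Subgroup.index_ne_zero_of_finite).trans hi2.le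
      have a4 := Subgroup.card_le_of_le a1
      rw [card_cj, hT16] at a2
      rw [hW4] at a4
      nlinarith
  intro X hX N hNX hsq
  by_cases hX1 : X ≤ S1
  · exact hSR1 X hX1 N hNX hsq
  obtain ⟨e, he, he1⟩ := SetLike.not_le_iff_exists.1 hX1
  have heS := hSS2 (hX he)
  have b1 := card_inf_mul_relIndex S1 X
  have b2 : S1.relIndex X ≤ 2 :=
    (Subgroup.relIndex_le_of_le_right (hX.trans hSS2) Subgroup.index_ne_zero_of_finite).trans hi2.le
  have b3 := card_mul_relIndex hNX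
  have b4 : 0 < Nat.card N := Nat.card_pos
  suffices b5 : Nat.card ↥(S1 ⊓ X) ≤ 8 * Nat.card N by
    have : Nat.card N * N.relIndex X ≤ Nat.card N * 16 := by rw [b3, ← b1]; nlinarith
    exact Nat.le_of_mul_le_mul_left this b4
  by_cases hc : ∃ t ∈ X, t ∈ T ∧ t ∉ W
  · obtain ⟨t, htX, htT, htW⟩ := hc
    have ht' : e * t * e⁻¹ ∈ T' := (hswap e heS he1).1 ▸ conj_mem_map_conj e htT
    have ht'W : e * t * e⁻¹ ∉ W := fun h => htW (hTT' ▸ ⟨htT, by
      have := conj_mem_map_conj e⁻¹ h.1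
      rw [show e⁻¹ * (e * t * e⁻¹) * e⁻¹⁻¹ = t by group] at this
      have h2 := (hswap e⁻¹ (S2.inv_mem heS) fun h => he1 (by simpa using S1.inv_mem h)).1
      exact h2 ▸ this⟩)
    have ht'T : e * t * e⁻¹ ∉ T := fun h => ht'W (hTT' ▸ ⟨h, ht'⟩)
    obtain ⟨y, hy⟩ : ∃ y, y = t * (e * t * e⁻¹) := ⟨_, rfl⟩
    have hyN : y ∈ N := by
      have := comm_mem_of_sq hsq htX he
      rw [inv_eq_of_mul_eq_one_right (hT2 t htT)] at this
      rw [hy]; simpa [mul_assoc] using this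
    have hyT : y ∉ T := fun h => ht'T ((T.mul_mem_cancel_left htT).1 (hy ▸ h))
    have hyS : y ∈ S1 := hy ▸ S1.mul_mem (hTS1 htT) (hT'S1 ht')
    have hyy : y * y ≠ 1 := fun h => by
      rcases hinv y hyS h with h2 | h2
      · exact hyT h2
      · exact htW (hTT' ▸ ⟨htT, (T'.mul_mem_cancel_right ht').1 (hy ▸ h2)⟩)
    have hyT2 : y * y ∈ T := by
      have h2 := hT'2 _ ht'
      have e1 : y * y = t * ((e * t * e⁻¹) * t * (e * t * e⁻¹)⁻¹) := by
        rw [hy, inv_eq_of_mul_eq_one_right h2]; group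
      rw [e1]
      exact T.mul_mem htT (conj_mem_of_mem_normalizer (hT'S1 ht').2 htT)
    have c1 := two_mul_card_le_of_lt (inf_le_left : N ⊓ T ≤ N) hyN fun h => hyT h.2
    have c2 := two_le_card_of_mem (N := N ⊓ T) ⟨N.mul_mem hyN hyN, hyT2⟩ hyy
    by_cases hS1X : S1 ≤ X
    · obtain ⟨K, hK, hK', hKc⟩ := exists_comm_sub hT2 (hT'S1 ht').2 (fun a _ => by
        rw [hT'2 _ ht']; simp)
      rw [hWr' _ ht' ht'T, hW4, hT16] at hKc
      have h1 : K ≤ N ⊓ T := by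
        intro k hk
        refine ⟨?_, (hK hk).1⟩
        obtain ⟨a, ha, rfl⟩ := hK' k hk
        have := comm_mem_of_sq hsq (hS1X (hTS1 ha)) (hS1X (hT'S1 ht'))
        rw [inv_eq_of_mul_eq_one_right (hT2 a ha)] at this
        simpa [mul_assoc] using this
      have c3 := Subgroup.card_le_of_le h1
      have c4 := Subgroup.card_le_of_le (inf_le_left : S1 ⊓ X ≤ S1)
      omega
    · obtain ⟨x, hx, hxX⟩ := SetLike.not_le_iff_exists.1 hS1X
      have c3 := two_mul_card_le_of_lt (inf_le_left : S1 ⊓ X ≤ S1) hx fun h => hxX h.2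
      omega
  · push Not at hc
    by_cases hYW : S1 ⊓ X ≤ W
    · have := Subgroup.card_le_of_le hYW
      omega
    obtain ⟨y, hy, hyW⟩ := SetLike.not_le_iff_exists.1 hYW
    have hyy : y * y ≠ 1 := fun h => by
      rcases hinv y hy.1 h with h2 | h2
      · exact hyW (hc y hy.2 h2)
      · have h3 : e * y * e⁻¹ ∈ T := (hswap e heS he1).2 ▸ conj_mem_map_conj e h2
        have h4 := hWT' (hc _ (X.mul_mem (X.mul_mem he hy.2) (X.inv_mem he)) h3)
        rw [← (hswap e heS he1).1, mem_cj] at h4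
        exact hyW (hTT' ▸ ⟨by simpa [mul_assoc] using h4, h2⟩)
    have c2 := two_le_card_of_mem (hsq y hy.2) hyy
    have c3 := card_inf_mul_relIndex T (S1 ⊓ X)
    have c4 : T.relIndex (S1 ⊓ X) ≤ 4 :=
      (Subgroup.relIndex_le_of_le_right inf_le_left Subgroup.index_ne_zero_of_finite).trans hidx
    have c5 : Nat.card ↥(T ⊓ (S1 ⊓ X)) ≤ 4 :=
      hW4 ▸ Subgroup.card_le_of_le fun x hx => hc x hx.2.2 hx.1
    nlinarith

end Cfsg.Agent.H11
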